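import Cfsg.Agent.FiMult.Rewrite
import Cfsg.Agent.SporB.FiTwoTwo.Realize

/-!
# Lifts of the Coxeter generators of Fi22 to central extensions
-/

set_option autoImplicit false
set_option maxRecDepth 100000

namespace Cfsg.Agent.FiMult

open Cfsg.Spor.Fi22 (Gen edges extra)

/-- The generators. -/
def gens : List Gen := [.a, .b, .c, .d, .e, .f, .g, .h, .i]

theorem mem_gens (a : Gen) : a ∈ gens := by cases a <;> decide

/-- Adjacency in the diagram. -/
def adj (a b : Gen) : Bool := decide (Cfsg.Spor.coxLabel edges a b = 3)

/-- A property of all pairs, checked on the list. -/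
theorem forall_pairs {p : Gen → Gen → Prop} (h : ∀ a ∈ gens, ∀ b ∈ gens, p a b) (a b : Gen) :
    p a b := h a (mem_gens a) b (mem_gens b)

theorem adj_symm : ∀ a b, adj a b = adj b a := forall_pairs (by decide +kernel)

theorem adj_self : ∀ a, adj a a = false := by intro a; cases a <;> decide +kernel

theorem node (a : Gen) : a ∈ Cfsg.Spor.coxNodes edges := by cases a <;> decide +kernel

/-- A Coxeter-like system up to squares. -/
structure Braided {M : Type*} [Monoid M] (x : Gen → M) : Prop where
  comm : ∀ a b, adj a b = false → x a * x b = x b * x a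
  braid : ∀ a b, adj a b = true → x a * x b * x a = x b * x a * x b

/-- The generators in the presented group. -/
noncomputable def gen0 (a : Gen) : Cfsg.Spor.Fi22 := PresentedGroup.of a

theorem gen0_rel (a b : Gen) : (gen0 a * gen0 b) ^ Cfsg.Spor.coxLabel edges a b = 1 := by
  have h : (FreeGroup.of a * FreeGroup.of b) ^ Cfsg.Spor.coxLabel edges a b ∈
      Cfsg.Spor.coxRelators edges ∪ {r | r ∈ extra} :=
    Or.inl ⟨a, node a, b, node b, rfl⟩
  have h1 := PresentedGroup.one_of_mem h
  rw [map_pow, map_mul] at h1
  exact h1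

theorem gen0_sq (a : Gen) : gen0 a * gen0 a = 1 := by
  have h := gen0_rel a a
  rwa [show Cfsg.Spor.coxLabel edges a a = 1 from by simp [Cfsg.Spor.coxLabel], pow_one] at h

theorem gen0_inv (a : Gen) : (gen0 a)⁻¹ = gen0 a := inv_eq_of_mul_eq_one_left (gen0_sq a)

theorem gen0_braided : Braided gen0 := by
  have hl : ∀ a b, Cfsg.Spor.coxLabel edges a b =
      if adj a b then 3 else if a = b then 1 else 2 := forall_pairs (by decide +kernel)
  refine ⟨fun a b hab => ?_, fun a b hab => ?_⟩
  · by_cases h : a = b
    · rw [h]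
    have h1 := gen0_rel a b
    rw [hl a b, hab] at h1
    simp only [Bool.false_eq_true, if_false, if_neg h, pow_two] at h1
    rw [mul_eq_one_iff_eq_inv] at h1
    rw [h1, mul_inv_rev, gen0_inv, gen0_inv]
  · have h1 := gen0_rel a b
    rw [hl a b, hab] at h1
    simp only [if_true] at h1
    have h2 : (gen0 a * gen0 b * gen0 a) * (gen0 b * gen0 a * gen0 b) = 1 := by
      rw [← h1]; simp only [pow_succ, pow_zero, one_mul, mul_assoc]
    rw [mul_eq_one_iff_eq_inv] at h2
    rw [h2]
    simp [mul_inv_rev, gen0_inv, mul_assoc]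

/-- The code of a generator. -/
def codeOf : Gen → ℕ
  | .a => 1 | .b => 2 | .c => 3 | .d => 4 | .e => 5 | .f => 6 | .g => 7 | .h => 8 | .i => 9

theorem val_code (a : Gen) : SporB.FischerU.val [codeOf a] = gen0 a := by
  cases a <;>
    simp [SporB.FischerU.val, CosetCert.pval, CosetCert.PresData.act, codeOf, gen0,
      CosetCert.FiTwentyTwoU.data, CosetCert.PresData.lval, PresentedGroup.of]

theorem val_codes : ∀ w : List Gen,
    SporB.FischerU.val ((w.map codeOf).reverse) = (w.map gen0).prod
  | [] => by simp [SporB.FischerU.val, CosetCert.pval]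
  | a :: t => by
    rw [List.map_cons, List.reverse_cons, SporB.FischerU.val_append, val_codes t, val_code,
      List.map_cons, List.prod_cons]

/-- The word of the E7 subdiagram avoiding the neighbour of `g`. -/
def wordO : List Gen := (List.replicate 9 [Gen.a, .b, .c, .d, .e, .h, .i]).flatten

/-- Its value is trivial in Fi22. -/
theorem wordO_one : (wordO.map gen0).prod = 1 := by
  obtain ⟨φ, hinj, hval, -, -⟩ := SporB.FischerU.fi_data
  rw [← val_codes]
  exact SporB.FischerU.val_eq_one hinj hval _ (by decide +kernel) (by decide +kernel)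

end Cfsg.Agent.FiMult
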