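import Mathlib

/-!
# Packed matrices of size 54 over the field of two elements
-/

set_option autoImplicit false

namespace Cfsg.Agent.FiMult

/-- Matrices of size 54 over the field of two elements. -/
abbrev Mat54 : Type := Matrix (Fin 54) (Fin 54) (ZMod 2)

/-- A row of a packed matrix. -/
def rowOf (A : ℕ) (i : ℕ) : ℕ := (A >>> (54 * i)) % 2 ^ 54

/-- The matrix of a list of rows. -/
def toMat (A : List ℕ) : Mat54 := Matrix.of fun i j => if (A.getD i 0).testBit j then 1 else 0

/-- Unpacking. -/
def unpack54 (A : ℕ) : List ℕ := (List.range 54).map (rowOf A)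

/-- Combination of rows selected by bits. -/
def combine : List ℕ → ℕ → ℕ
  | [], _ => 0
  | b :: B, r => if r.testBit 0 then Nat.xor b (combine B (r / 2)) else combine B (r / 2)

/-- Product of packed matrices. -/
def mulRows (A B : List ℕ) : List ℕ := A.map (combine B)

theorem testBit_combine : ∀ (B : List ℕ) (r j : ℕ),
    (if (combine B r).testBit j then (1 : ZMod 2) else 0) =
      ∑ k ∈ Finset.range B.length,
        (if r.testBit k then (1 : ZMod 2) else 0) * (if (B.getD k 0).testBit j then 1 else 0)
  | [], r, j => by simp [combine]
  | b :: B, r, j => by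
    rw [List.length_cons, Finset.sum_range_succ']
    have h := testBit_combine B (r / 2) j
    have hs : ∀ k, r.testBit (k + 1) = (r / 2).testBit k := fun k => Nat.testBit_succ r k
    simp only [hs, List.getD_cons_succ, List.getD_cons_zero]
    rw [← h]
    by_cases h0 : r.testBit 0 = true
    · simp only [combine, h0, if_true, one_mul]
      rw [show (Nat.xor b (combine B (r / 2))).testBit j =
        Bool.xor (b.testBit j) ((combine B (r / 2)).testBit j) from Nat.testBit_xor _ _ _]
      cases b.testBit j <;> cases (combine B (r / 2)).testBit j <;> decide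
    · simp [combine, h0]

theorem toMat_mulRows (A B : List ℕ) (hA : A.length = 54) (hB : B.length = 54) :
    toMat (mulRows A B) = toMat A * toMat B := by
  ext i j
  rw [Matrix.mul_apply]
  have hi : (i : ℕ) < A.length := hA.symm ▸ i.2
  simp only [toMat, Matrix.of_apply]
  rw [show (mulRows A B).getD i 0 = combine B (A.getD i 0) from by
    simp [mulRows, List.getD_eq_getElem _ _ hi, List.getD_eq_getElem, hi]]
  rw [testBit_combine, hB]
  exact Finset.sum_range (fun k : ℕ =>
    (if (A.getD i 0).testBit k then (1 : ZMod 2) else 0) * (if (B.getD k 0).testBit j then 1 else 0))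

/-- The rows of the identity. -/
def oneRows : List ℕ := (List.range 54).map fun i => 2 ^ i

theorem toMat_oneRows : toMat oneRows = 1 := by
  ext i j
  simp [toMat, oneRows, Matrix.one_apply, Fin.ext_iff, Nat.testBit_two_pow]

theorem unpack54_length (A : ℕ) : (unpack54 A).length = 54 := by simp [unpack54]

theorem mulRows_length (A B : List ℕ) : (mulRows A B).length = A.length := by simp [mulRows]

/-- Product of a list of matrices. -/
def prodRows {α : Type*} (f : α → List ℕ) : List α → List ℕ
  | [] => oneRows
  | a :: w => mulRows (f a) (prodRows f w)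

theorem prodRows_spec {α : Type*} (f : α → List ℕ) (hf : ∀ a, (f a).length = 54) :
    ∀ w : List α, (prodRows f w).length = 54 ∧ toMat (prodRows f w) = (w.map fun a => toMat (f a)).prod := by
  intro w
  induction w with
  | nil => exact ⟨by simp [prodRows, oneRows], by simp [prodRows, toMat_oneRows]⟩
  | cons a w ih =>
    refine ⟨by rw [prodRows, mulRows_length, hf], ?_⟩
    rw [prodRows, toMat_mulRows _ _ (hf a) ih.1, ih.2, List.map_cons, List.prod_cons]

end Cfsg.Agent.FiMult
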