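import Cfsg.Agent.FiMult.Norm
import Cfsg.Agent.FiMult.Spider
import Cfsg.Prelude.Def_KGroupFacts

/-!
# The multiplier of Fi22 is a quotient of the cyclic group of order six
-/

set_option autoImplicit false
set_option maxRecDepth 100000
set_option linter.constructorNameAsVariable false

namespace Cfsg.Agent.FiMult

open Cfsg.Spor.Fi22 (Gen)

section

variable {Γ : Type*} [Group Γ] {σ : Γ →* Cfsg.Spor.Fi22} (hz : σ.ker ≤ Subgroup.center Γ)

include hz

theorem exists_braided (hσ : Function.Surjective σ) :
    ∃ x : Gen → Γ, IsLift σ x ∧ Braided x := by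
  choose y hy using fun a => hσ (gen0 a)
  let k : Gen → Gen → Γ := fun a b => y a * y b * y a * (y b * y a * y b)⁻¹
  let m : Gen → Γ := fun g => match g with
    | .d => 1
    | .c => k .d .c
    | .b => k .c .b * k .d .c
    | .a => k .b .a * (k .c .b * k .d .c)
    | .e => k .d .e
    | .f => k .e .f * k .d .e
    | .g => k .f .g * (k .e .f * k .d .e)
    | .h => k .d .h
    | .i => k .h .i * k .d .h
  have hk : ∀ a b, adj a b = true → σ (k a b) = 1 := by
    intro a b h
    simp only [k, map_mul, map_inv, hy]
    rw [gen0_braided.braid a b h, mul_inv_cancel]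
  have hm : ∀ g, σ (m g) = 1 := by
    intro g
    cases g <;> simp only [m, map_one, map_mul] <;>
      simp [hk _ _ (show adj .d .c = true by decide +kernel),
        hk _ _ (show adj .c .b = true by decide +kernel),
        hk _ _ (show adj .b .a = true by decide +kernel),
        hk _ _ (show adj .d .e = true by decide +kernel),
        hk _ _ (show adj .e .f = true by decide +kernel),
        hk _ _ (show adj .f .g = true by decide +kernel),
        hk _ _ (show adj .d .h = true by decide +kernel),
        hk _ _ (show adj .h .i = true by decide +kernel)]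
  refine ⟨fun a => y a * m a, fun a => by rw [map_mul, hy, hm, mul_one], ?_, ?_⟩
  · intro a b h
    calc y a * m a * (y b * m b) = y a * (m a * y b) * m b := by group
    _ = y a * (y b * m a) * m b := by rw [← central σ hz (hm a) (y b)]
    _ = y a * y b * (m a * m b) := by group
    _ = y b * y a * (m b * m a) := by rw [lift_comm σ hz hy h, central σ hz (hm b) (m a)]
    _ = y b * (y a * m b) * m a := by group
    _ = y b * (m b * y a) * m a := by rw [central σ hz (hm b) (y a)]
    _ = _ := by group
  · have hor : ∀ a b, adj a b = true →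
        m b = k a b * m a ∨ m a = k b a * m b := by
      intro a b h
      cases a <;> cases b <;> first
        | (left; simp only [m, mul_one]; done)
        | (right; simp only [m, mul_one]; done)
        | exact absurd h (by decide +kernel)
    have key : ∀ a b, adj a b = true → m b = k a b * m a →
        y a * m a * (y b * m b) * (y a * m a) = y b * m b * (y a * m a) * (y b * m b) := by
      intro a b h hmb
      have ca : ∀ g, Commute g (m a) := central σ hz (hm a)
      have cb : ∀ g, Commute g (m b) := central σ hz (hm b)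
      have h1 : y a * m a * (y b * m b) * (y a * m a) =
          (y a * y b * y a) * (m a * m b * m a) := by
        calc y a * m a * (y b * m b) * (y a * m a)
            = y a * (m a * y b) * (m b * y a) * m a := by group
        _ = y a * (y b * m a) * (y a * m b) * m a := by rw [(ca (y b)).eq, (cb (y a)).eq]
        _ = y a * y b * (m a * y a) * m b * m a := by group
        _ = y a * y b * (y a * m a) * m b * m a := by rw [(ca (y a)).eq]
        _ = _ := by group
      have h2 : y b * m b * (y a * m a) * (y b * m b) =
          (y b * y a * y b) * (m b * m a * m b) := by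
        calc y b * m b * (y a * m a) * (y b * m b)
            = y b * (m b * y a) * (m a * y b) * m b := by group
        _ = y b * (y a * m b) * (y b * m a) * m b := by rw [(cb (y a)).eq, (ca (y b)).eq]
        _ = y b * y a * (m b * y b) * m a * m b := by group
        _ = y b * y a * (y b * m b) * m a * m b := by rw [(cb (y b)).eq]
        _ = _ := by group
      rw [h1, h2, show y a * y b * y a = k a b * (y b * y a * y b) from
        (inv_mul_cancel_right _ _).symm, ← central σ hz (hk a b h), mul_assoc]
      congr 1
      calc k a b * (m a * m b * m a) = (k a b * m a) * m b * m a := by group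
      _ = m b * m b * m a := by rw [← hmb]
      _ = m b * (m b * m a) := by group
      _ = m b * (m a * m b) := by rw [← (cb (m a)).eq]
      _ = _ := by group
    intro a b h
    rcases hor a b h with h1 | h1
    · exact key a b h h1
    · exact (key b a (by rw [adj_symm]; exact h) h1).symm

omit hz in
theorem prod_mul_rev {x : Gen → Γ} {s : Γ} (hsq : ∀ a, x a * x a = s) (hs : ∀ g, Commute g s) :
    ∀ w : List Gen, (w.map x).prod * (w.reverse.map x).prod = s ^ w.length := by
  intro w
  induction w with
  | nil => simp
  | cons a t ih =>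
    rw [List.map_cons, List.prod_cons, List.reverse_cons, List.map_append, List.prod_append,
      List.map_cons, List.map_nil, List.prod_singleton, mul_assoc, ← mul_assoc (t.map x).prod, ih,
      ← ((hs (x a)).pow_right _).eq, ← mul_assoc, hsq, List.length_cons, pow_succ']

omit hz in
theorem word_sq {x : Gen → Γ} (hx : Braided x) {s : Γ} (hsq : ∀ a, x a * x a = s)
    (hs : ∀ g, Commute g s) {P u : List Gen} {ms : List Move}
    (hms : runMoves adj ms (u ++ P) = some (P.reverse ++ u) ∧ ms.all Move.noCancel = true)
    {n : ℕ} (hc : ∀ g, Commute g ((P.map x).prod ^ n)) :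
    (P.map x).prod ^ n * (P.map x).prod ^ n = s ^ (P.length * n) := by
  set p := (P.map x).prod
  set r := (P.reverse.map x).prod
  have h1 : (u.map x).prod * p = r * (u.map x).prod := by
    have := runMoves_eval hx.comm hx.braid ms _ _ (fun h => by rw [hms.2] at h; simp at h) hms.1
    simpa [p, r, List.map_append, List.prod_append, List.map_reverse] using this
  have h2 : (u.map x).prod * p ^ n = r ^ n * (u.map x).prod := (SemiconjBy.pow_right h1 n)
  rw [(hc _).eq] at h2
  have h3 := mul_right_cancel h2
  have h4 : p * r = s ^ P.length := prod_mul_rev hsq hs P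
  have h5 : Commute p r := by
    have : r = p⁻¹ * s ^ P.length := by rw [← h4, inv_mul_cancel_left]
    rw [this]
    exact ((Commute.refl p).inv_right).mul_right ((hs p).pow_right _)
  conv_lhs => arg 2; rw [h3]
  rw [← h5.mul_pow, h4, pow_mul]

theorem exists_coxeter (hσ : Function.Surjective σ) :
    ∃ x : Gen → Γ, IsLift σ x ∧ Braided x ∧ ∀ a, x a * x a = 1 := by
  obtain ⟨x, hl, hx⟩ := exists_braided hz hσ
  have hs1 : ∀ a, σ (x a * x a) = 1 := fun a => by rw [map_mul, hl, gen0_sq]
  set s := x .d * x .d with hsdef
  have hsz : ∀ g, Commute g s := central σ hz (hs1 .d)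
  have hstep : ∀ a b, adj a b = true → x a * x a = x b * x b := by
    intro a b h
    have h1 : SemiconjBy (x a * x b) (x a) (x b) := by
      show x a * x b * x a = x b * (x a * x b)
      rw [hx.braid a b h, mul_assoc]
    have h2 : x a * x b * (x a * x a) = x b * x b * (x a * x b) := h1.mul_right h1
    rw [central σ hz (hs1 a) (x a * x b)] at h2
    exact mul_right_cancel h2
  have hsq : ∀ a, x a * x a = s := by
    have e := fun a b (h : adj a b = true) => hstep a b h
    intro a
    cases a <;> simp only [hsdef]
    · rw [e .a .b (by decide +kernel), e .b .c (by decide +kernel), e .c .d (by decide +kernel)]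
    · rw [e .b .c (by decide +kernel), e .c .d (by decide +kernel)]
    · rw [e .c .d (by decide +kernel)]
    · rw [e .e .d (by decide +kernel)]
    · rw [e .f .e (by decide +kernel), e .e .d (by decide +kernel)]
    · rw [e .g .f (by decide +kernel), e .f .e (by decide +kernel), e .e .d (by decide +kernel)]
    · rw [e .h .d (by decide +kernel)]
    · rw [e .i .h (by decide +kernel), e .h .d (by decide +kernel)]
  set z := (wordTwo.map x).prod ^ 9
  have hzk : σ z = 1 := by
    rw [map_pow, hl.prod]
    have h := PresentedGroup.one_of_mem (rels := Cfsg.Spor.coxRelators Cfsg.Spor.Fi22.edges ∪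
      {r | r ∈ Cfsg.Spor.Fi22.extra}) (x := (Cfsg.Spor.Fi22.a * Cfsg.Spor.Fi22.b * Cfsg.Spor.Fi22.c *
      Cfsg.Spor.Fi22.d * Cfsg.Spor.Fi22.e * Cfsg.Spor.Fi22.f * Cfsg.Spor.Fi22.h) ^ 9)
      (Or.inr (by simp [Cfsg.Spor.Fi22.extra]))
    simpa [wordTwo, gen0, PresentedGroup.of, mul_assoc, map_pow, map_mul] using h
  have hzc : ∀ g, Commute g z := central σ hz hzk
  have h63 : z * z = s ^ 63 := word_sq hx hsq hsz swapsTwo_ok hzc
  set k := z * (s ^ 31)⁻¹
  have hk : σ k = 1 := by
    show σ (z * (s ^ 31)⁻¹) = 1
    rw [σ.map_mul, hzk, map_inv, map_pow, hsdef, hs1]; simp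
  have hkk : k * k = s := by
    have hc : Commute z (s ^ 31)⁻¹ := ((hsz z).pow_right 31).inv_right
    calc z * (s ^ 31)⁻¹ * (z * (s ^ 31)⁻¹) = z * ((s ^ 31)⁻¹ * z) * (s ^ 31)⁻¹ := by group
    _ = z * z * ((s ^ 31)⁻¹ * (s ^ 31)⁻¹) := by rw [← hc.eq]; group
    _ = s := by rw [h63]; group
  have hki : ∀ g, Commute g k⁻¹ := fun g => Commute.inv_right (central σ hz hk g)
  have h2 : ∀ g g', g * k⁻¹ * (g' * k⁻¹) = g * g' * (k⁻¹ * k⁻¹) := fun g g' => by
    rw [mul_assoc, ← mul_assoc k⁻¹, ← (hki g').eq]; group
  have h3 : ∀ g g' g'', g * k⁻¹ * (g' * k⁻¹) * (g'' * k⁻¹) = g * g' * g'' * (k⁻¹ * k⁻¹ * k⁻¹) :=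
    fun g g' g'' => by
      rw [h2, mul_assoc, ← mul_assoc (k⁻¹ * k⁻¹), ← ((hki g'').mul_right (hki g'')).eq]; group
  refine ⟨fun a => x a * k⁻¹, fun a => by rw [map_mul, map_inv, hk, hl, inv_one, mul_one],
    ⟨fun a b h => ?_, fun a b h => ?_⟩, fun a => ?_⟩
  · rw [h2, h2, hx.comm a b h]
  · rw [h3, h3, hx.braid a b h]
  · rw [h2, hsq, ← hkk]; group

end

end Cfsg.Agent.FiMult
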