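import Cfsg.Agent.FiMult.Basic

/-! Conjugacy of the two E7 Coxeter words to their reversals (generated). -/

set_option autoImplicit false
set_option maxRecDepth 100000

namespace Cfsg.Agent.FiMult

open Cfsg.Spor.Fi22 (Gen)


/-- A seven-letter Coxeter word. -/
def wordTwo : List Gen := [.a, .b, .c, .d, .e, .f, .h]

/-- It is conjugate to its reversal by this word. -/
def conjTwo : List Gen := [.h, .f, .e, .d, .c, .h, .f, .e, .d, .h, .f, .e, .f, .b, .c, .d, .e, .f, .h]

/-- The exchanges proving this. -/
def swapsTwo : List Move := [.swap 12, .swap 11, .swap 10, .swap 9, .swap 8, .swap 7, .swap 6, .swap 5, .swap 18, .swap 17, .swap 16, .swap 15, .swap 14, .swap 13, .swap 12, .swap 11, .swap 10, .swap 9, .swap 8, .swap 7, .swap 6, .swap 14, .swap 13, .swap 12, .swap 11, .swap 15, .swap 18, .swap 17, .swap 16]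

theorem swapsTwo_ok : runMoves adj swapsTwo (conjTwo ++ wordTwo) =
    some (wordTwo.reverse ++ conjTwo) ∧ swapsTwo.all Move.noCancel = true := by
  decide +kernel

/-- A seven-letter Coxeter word. -/
def wordThree : List Gen := [.b, .c, .d, .e, .f, .g, .h]

/-- It is conjugate to its reversal by this word. -/
def conjThree : List Gen := [.h, .g, .f, .e, .d, .h, .g, .f, .e, .g, .f, .g, .c, .d, .e, .f, .g, .h]

/-- The exchanges proving this. -/
def swapsThree : List Move := [.swap 11, .swap 10, .swap 9, .swap 8, .swap 7, .swap 6, .swap 5, .swap 17, .swap 16, .swap 15, .swap 14, .swap 13, .swap 12, .swap 11, .swap 10, .swap 9, .swap 8, .swap 7, .swap 6, .swap 13, .swap 12, .swap 11, .swap 17, .swap 16, .swap 15, .swap 14, .swap 13, .swap 12, .swap 15]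

theorem swapsThree_ok : runMoves adj swapsThree (conjThree ++ wordThree) =
    some (wordThree.reverse ++ conjThree) ∧ swapsThree.all Move.noCancel = true := by
  decide +kernel

end Cfsg.Agent.FiMult
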