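import Cfsg.Agent.FiMult.Data
import Cfsg.Agent.FiMult.Words
import Cfsg.Agent.FiMult.Spider

/-!
# Nine units satisfying the Fi22 relations up to a central element of order three
-/

set_option autoImplicit false
set_option maxRecDepth 100000
set_option linter.constructorNameAsVariable false

namespace Cfsg.Agent.FiMult

open Cfsg.Spor.Fi22 (Gen)

/-- The rows of a generator. -/
def genRows (a : Gen) : List ℕ := unpack54 (matData a)

/-- The value of a word. -/
def wordRows (w : List Gen) : List ℕ := prodRows genRows w

theorem wordRows_spec (w : List Gen) :
    toMat (wordRows w) = (w.map fun a => toMat (genRows a)).prod :=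
  (prodRows_spec genRows (fun _ => unpack54_length _) w).2

theorem rows_sq : ∀ a ∈ gens, wordRows [a, a] = oneRows := by decide +kernel

/-- The generator as a unit. -/
def threeGen (a : Gen) : Mat54ˣ :=
  have h : toMat (genRows a) * toMat (genRows a) = 1 := by
    rw [← toMat_oneRows, ← rows_sq a (mem_gens a), wordRows_spec]
    simp
  ⟨toMat (genRows a), toMat (genRows a), h, h⟩

theorem threeGen_prod (w : List Gen) :
    ((w.map threeGen).prod : Mat54ˣ).val = toMat (wordRows w) := by
  rw [wordRows_spec, ← Units.coeHom_apply, map_list_prod, List.map_map]
  rfl

theorem threeGen_sq (a : Gen) : threeGen a * threeGen a = 1 := by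
  apply Units.ext
  have h := threeGen_prod [a, a]
  rw [rows_sq a (mem_gens a), toMat_oneRows] at h
  simpa using h

theorem threeGen_braided : Braided threeGen := by
  have key : ∀ u v : List Gen, wordRows u = wordRows v →
      (u.map threeGen).prod = (v.map threeGen).prod := fun u v h =>
    Units.ext (by rw [threeGen_prod, threeGen_prod, h])
  constructor
  · intro a b h
    have := key [a, b] [b, a] ((forall_pairs (p := fun a b => adj a b = false →
      wordRows [a, b] = wordRows [b, a]) (by decide +kernel)) a b h)
    simpa using this
  · intro a b h
    have := key [a, b, a] [b, a, b] ((forall_pairs (p := fun a b => adj a b = true →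
      wordRows [a, b, a] = wordRows [b, a, b]) (by decide +kernel)) a b h)
    simpa [mul_assoc] using this

theorem threeGen_two : ((List.replicate 9 wordTwo).flatten.map threeGen).prod = 1 :=
  Units.ext (by
    rw [threeGen_prod, show wordRows (List.replicate 9 wordTwo).flatten = oneRows from by
      decide +kernel, toMat_oneRows]; rfl)

theorem threeGen_three : ((List.replicate 9 wordThree).flatten.map threeGen).prod = 1 :=
  Units.ext (by
    rw [threeGen_prod, show wordRows (List.replicate 9 wordThree).flatten = oneRows from by
      decide +kernel, toMat_oneRows]; rfl)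

/-- The central element of order three. -/
noncomputable def omega : Mat54ˣ := (spider.map threeGen).prod

theorem omega_rows : wordRows spider = unpack54 omegaData := by decide +kernel

theorem omega_val : (omega : Mat54) = toMat (unpack54 omegaData) := by
  rw [omega, threeGen_prod, omega_rows]

theorem omega_comm (a : Gen) : threeGen a * omega = omega * threeGen a := by
  have h : ∀ a ∈ gens, mulRows (genRows a) (unpack54 omegaData) =
      mulRows (unpack54 omegaData) (genRows a) := by decide +kernel
  apply Units.ext
  rw [Units.val_mul, Units.val_mul, omega_val]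
  show toMat (genRows a) * _ = _ * toMat (genRows a)
  have hl : (genRows a).length = 54 := unpack54_length _
  rw [← toMat_mulRows _ _ hl (unpack54_length _),
    ← toMat_mulRows _ _ (unpack54_length _) hl, h a (mem_gens a)]

theorem omega_ne : omega ≠ 1 ∧ omega * omega ≠ 1 := by
  have h1 : (toMat (unpack54 omegaData)) ⟨0, by omega⟩ ⟨0, by omega⟩ ≠
      (1 : Mat54) ⟨0, by omega⟩ ⟨0, by omega⟩ := by decide +kernel
  have h2 : (toMat (mulRows (unpack54 omegaData) (unpack54 omegaData))) ⟨0, by omega⟩ ⟨1, by omega⟩ ≠
      (1 : Mat54) ⟨0, by omega⟩ ⟨1, by omega⟩ := by decide +kernel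
  constructor
  · intro h
    apply h1
    rw [← omega_val, h, Units.val_one]
  · intro h
    apply h2
    rw [toMat_mulRows _ _ (unpack54_length _) (unpack54_length _), ← omega_val, ← Units.val_mul, h,
      Units.val_one]

end Cfsg.Agent.FiMult
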