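import Cfsg.Agent.CosetEnum.FiTwentyThree.Cover
import Cfsg.Agent.FiMult.Words
import Cfsg.Agent.FiMult.Spider

/-! The double cover inside the presented Fi23, as values of the nine generators. -/

set_option autoImplicit false
set_option maxRecDepth 100000

namespace Cfsg.Agent.FiMult

open Cfsg.Agent.CosetCert Cfsg.Agent.CosetEnum Cfsg.Agent.CosetEnum.FiTwentyThree

/-- The central word gives a nontrivial central involution. -/
theorem cent_value : Finite (sub) ∧ ((centList.map gen).prod : sub) ≠ 1 ∧
    (∀ a, gen a * (centList.map gen).prod = (centList.map gen).prod * gen a) := by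
  classical
  obtain ⟨h1, h2, hcard, φ, hinj, hof⟩ := simple_of_cert (M := 129123503308800) Cfsg.Agent.CosetCert.FiTwentyThree.valid
    Cfsg.Agent.CosetCert.FiTwentyThree.word_letters Cfsg.Agent.CosetCert.FiTwentyThree.base_letters
    simpleData subgroup_bound chain_valid
    (by decide +kernel) (by decide +kernel) intervals_valid (by decide +kernel) (by decide +kernel)
    (by decide +kernel) (by decide +kernel) (by decide +kernel) (by decide +kernel) (by decide +kernel)
    points_ok
  have hrun : ∀ (w : List ℕ), (∀ l ∈ w, 1 ≤ l ∧ l ≤ Cfsg.Agent.CosetCert.FiTwentyThree.data.cols.length) →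
      ∀ i : Fin Cfsg.Agent.CosetCert.FiTwentyThree.data.N,
      (φ (pval (Cfsg.Agent.CosetCert.FiTwentyThree.data.act PresentedGroup.of) w) i : ℕ) =
        Cfsg.Agent.CosetCert.FiTwentyThree.data.run w i := by
    intro w hw i
    rw [PresData.map_pval]
    have : (φ ∘ PresentedGroup.of) = PresData.genPerm Cfsg.Agent.CosetCert.FiTwentyThree.valid := funext hof
    rw [this]
    exact PresData.letters_words Cfsg.Agent.CosetCert.FiTwentyThree.valid hw
  set z : sub := (centList.map gen).prod with hzdef
  set B := pval (Cfsg.Agent.CosetCert.FiTwentyThree.data.act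
    (PresentedGroup.of (rels := Cfsg.Spor.coxRelators Cfsg.Spor.Fi23.edges ∪ {r | r ∈ Cfsg.Spor.Fi23.extra})))
    [9, 7, 6, 5, 4, 3, 2] with hB
  have hzval : (z : Cfsg.Spor.Fi23) = B ^ 9 := by
    rw [hzdef, ← lift_word]
    have e0 := lift_gen ((centList.map FreeGroup.of).prod)
    simp only [Subgroup.subtype_apply] at e0
    rw [e0]
    have e : FreeGroup.map emb ((centList.map FreeGroup.of).prod) =
        (pval (Cfsg.Agent.CosetCert.FiTwentyThree.data.act FreeGroup.of) [9, 7, 6, 5, 4, 3, 2]) ^ 9 := by
      decide +kernel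
    rw [e, map_pow, PresData.map_pval]
    rfl
  have hzperm : ∀ i : Fin Cfsg.Agent.CosetCert.FiTwentyThree.data.N,
      (φ (z : Cfsg.Spor.Fi23) i : ℕ) = centTab.get 32 i := by
    intro i
    have key : ∀ n, ((φ B ^ n) i : ℕ) = SimpleData.iterWord Cfsg.Agent.CosetCert.FiTwentyThree.data [9, 7, 6, 5, 4, 3, 2] n i := by
      intro n
      induction n with
      | zero => rfl
      | succ n ih =>
        rw [pow_succ', Equiv.Perm.mul_apply, hB, hrun _ (by decide +kernel), ← hB, ih]
        rfl
    have hc := cent_all i i.2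
    simp only [Bool.and_eq_true] at hc
    rw [hzval, map_pow, key, (iterWord_eq_tblPow _ _ centBase (fun j hj => by
      have h := cent_all j hj
      simp only [Bool.and_eq_true] at h
      exact h.1) 9 i i.2).1]
    exact Nat.eq_of_beq_eq_true hc.2.1
  have hz : z ≠ 1 := by
    intro h
    refine cent_moves ?_
    have h' := hzperm ⟨1, by decide +kernel⟩
    rw [h] at h'
    simpa using h'.symm
  have hz2 : z * z = 1 := by
    refine Subtype.ext (hinj (Equiv.ext fun i => Fin.ext ?_))
    rw [Subgroup.coe_mul, map_mul, Equiv.Perm.mul_apply, hzperm, hzperm, Subgroup.coe_one, map_one]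
    have hc := cent_all i i.2
    simp only [Bool.and_eq_true] at hc
    exact Nat.eq_of_beq_eq_true hc.2.2.1
  have hzc : ∀ a, gen a * z = z * gen a := by
    intro a
    refine Subtype.ext (hinj (Equiv.ext fun i => Fin.ext ?_))
    have hl : ∀ l ∈ [1, 2, 3, 4, 5, 6, 7, 9, 10], ∀ j : Fin Cfsg.Agent.CosetCert.FiTwentyThree.data.N,
        ((PresData.genPerm Cfsg.Agent.CosetCert.FiTwentyThree.valid (emb a) j : ℕ) =
          Cfsg.Agent.CosetCert.FiTwentyThree.data.look l j) ∨ Cfsg.Agent.CosetCert.FiTwentyThree.data.code (emb a) ≠ l := by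
      intro l hl j
      by_cases hc : Cfsg.Agent.CosetCert.FiTwentyThree.data.code (emb a) = l
      · refine Or.inl ?_
        subst hc
        obtain ⟨c1, c2, -⟩ := Cfsg.Agent.CosetCert.FiTwentyThree.valid.allCode (emb a)
        exact PresData.perm_apply Cfsg.Agent.CosetCert.FiTwentyThree.valid c1 c2 j
      · exact Or.inr hc
    obtain ⟨l, hlm, hlc⟩ : ∃ l ∈ [1, 2, 3, 4, 5, 6, 7, 9, 10],
        Cfsg.Agent.CosetCert.FiTwentyThree.data.code (emb a) = l := by
      cases a <;> exact ⟨_, by decide +kernel, rfl⟩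
    have hv : ∀ j, (φ (gen a : Cfsg.Spor.Fi23) j : ℕ) = Cfsg.Agent.CosetCert.FiTwentyThree.data.look l j := by
      intro j
      show (φ (PresentedGroup.of (emb a)) j : ℕ) = _
      rw [hof]
      exact (hl l hlm j).resolve_right (not_not.2 hlc)
    rw [Subgroup.coe_mul, Subgroup.coe_mul, map_mul, map_mul, Equiv.Perm.mul_apply, Equiv.Perm.mul_apply,
      hv, hzperm, hzperm, hv]
    have hc := cent_all i i.2
    simp only [Bool.and_eq_true, List.all_eq_true] at hc
    exact (Nat.eq_of_beq_eq_true (hc.2.2.2 l hlm)).symm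
  refine ⟨?_, hz, hzc⟩
  exact Finite.of_injective (fun u : sub => φ (u : Cfsg.Spor.Fi23)) fun u v h => Subtype.ext (hinj h)

end Cfsg.Agent.FiMult
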