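import Cfsg.Agent.FiMult.Exist
import Cfsg.Agent.FiMult.Three
import Cfsg.Agent.FiMult.TwoCover

/-!
# The sextuple cover of Fi22
-/

set_option autoImplicit false
set_option maxRecDepth 100000
set_option linter.constructorNameAsVariable false
set_option maxHeartbeats 800000

namespace Cfsg.Agent.FiMult

open Cfsg.Spor.Fi22 (Gen)
open Cfsg.Agent.CosetEnum.FiTwentyThree (sub gen emb lift_eq_one lift_word centList oddList)
open Cfsg.Agent.CosetCert (coxList)

theorem fiTwentyThree_braided : Braided gen ∧ ∀ a, gen a * gen a = 1 := by
  have h : ∀ a b, (FreeGroup.of (emb a) * FreeGroup.of (emb b)) ^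
      (if adj a b then 3 else if a = b then 1 else 2) ∈
      coxList Cfsg.Spor.Fi23.edges Cfsg.Spor.Fi23.extra := forall_pairs (by decide +kernel)
  have h' : ∀ a b, (gen a * gen b) ^ (if adj a b then 3 else if a = b then 1 else 2) = 1 := by
    intro a b
    have := lift_eq_one ((FreeGroup.of a * FreeGroup.of b) ^
      (if adj a b then 3 else if a = b then 1 else 2)) (by
        rw [map_pow, map_mul, FreeGroup.map.of, FreeGroup.map.of]
        exact h a b)
    rw [map_pow, map_mul, FreeGroup.lift_apply_of, FreeGroup.lift_apply_of] at this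
    exact this
  have hs : ∀ a, gen a * gen a = 1 := fun a => by simpa [adj_self] using h' a a
  have hi : ∀ a, (gen a)⁻¹ = gen a := fun a => inv_eq_of_mul_eq_one_left (hs a)
  refine ⟨⟨fun a b hab => ?_, fun a b hab => ?_⟩, hs⟩
  · by_cases e : a = b
    · rw [e]
    have h1 := h' a b
    rw [hab] at h1
    simp only [Bool.false_eq_true, if_false, if_neg e, pow_two] at h1
    rw [mul_eq_one_iff_eq_inv] at h1
    rw [h1, mul_inv_rev, hi, hi]
  · have h1 := h' a b
    rw [hab] at h1
    simp only [if_true] at h1
    have h2 : (gen a * gen b * gen a) * (gen b * gen a * gen b) = 1 := by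
      rw [← h1]; simp only [pow_succ, pow_zero, one_mul, mul_assoc]
    rw [mul_eq_one_iff_eq_inv] at h2
    rw [h2]
    simp [mul_inv_rev, hi, mul_assoc]

theorem prod_replicate_word {M : Type*} [Monoid M] (x : Gen → M) (w : List Gen) (n : ℕ) :
    ((List.replicate n w).flatten.map x).prod = (w.map x).prod ^ n := by
  rw [List.map_flatten, List.map_replicate, List.prod_flatten, List.map_replicate, List.prod_replicate]

theorem two_values : zOne gen = 1 ∧ zTwo gen = 1 ∧
    zThree gen = (centList.map gen).prod := by
  refine ⟨?_, ?_, ?_⟩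
  · rw [zOne, ← lift_word]
    exact lift_eq_one _ (by decide +kernel)
  · rw [zTwo, ← prod_replicate_word, ← lift_word]
    exact lift_eq_one _ (by decide +kernel)
  · rw [zThree, ← prod_replicate_word]
    rw [show (List.replicate 9 wordThree).flatten = centList from by decide +kernel]

theorem omega_cube : omega ^ 3 = 1 := by
  have h : mulRows (mulRows (unpack54 omegaData) (unpack54 omegaData)) (unpack54 omegaData) =
      oneRows := by decide +kernel
  apply Units.ext
  rw [Units.val_pow_eq_pow_val, omega_val, Units.val_one, pow_succ, pow_two,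
    ← toMat_mulRows _ _ (unpack54_length _) (unpack54_length _),
    ← toMat_mulRows _ _ ((mulRows_length _ _).trans (unpack54_length _)) (unpack54_length _), h,
    toMat_oneRows]

/-- The nine pairs of a double and a triple lift. -/
noncomputable def pairGen (a : Gen) : sub × Mat54ˣ := (gen a, threeGen a)

theorem pair_word (w : List Gen) :
    (w.map pairGen).prod = ((w.map gen).prod, (w.map threeGen).prod) :=
  Prod.ext (map_word (MonoidHom.fst sub Mat54ˣ) pairGen w)
    (map_word (MonoidHom.snd sub Mat54ˣ) pairGen w)

theorem cover_exists :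
    ∃ (Γ : Type) (_ : Group Γ) (_ : Finite Γ) (σ : Γ →* Cfsg.Spor.Fi22),
      Cfsg.IsStemExtension σ ∧ Nonempty (σ.ker ≃* Multiplicative (ZMod 6)) := by
  obtain ⟨hfin, hz, hzc⟩ := cent_value
  obtain ⟨hb, hs⟩ := fiTwentyThree_braided
  obtain ⟨v1, v2, v3⟩ := two_values
  have t2 : zTwo threeGen = 1 := by rw [zTwo, ← prod_replicate_word]; exact threeGen_two
  have t3 : zThree threeGen = 1 := by rw [zThree, ← prod_replicate_word]; exact threeGen_three
  have p1 : zOne pairGen = (1, omega) := by
    rw [zOne, pair_word]
    exact Prod.ext v1 rfl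
  have p2 : zTwo pairGen = 1 := by
    rw [zTwo, pair_word]
    exact Prod.ext v2 t2
  have p3 : zThree pairGen = ((centList.map gen).prod, 1) := by
    rw [zThree, pair_word]
    exact Prod.ext v3 t3
  have hz2 : (centList.map gen).prod * (centList.map gen).prod = (1 : sub) := by
    rw [← v3, zThree]
    have hc : ∀ g, Commute g ((wordThree.map gen).prod ^ 9) := by
      intro g
      have hle : Subgroup.closure (Set.range gen) ≤
          Subgroup.centralizer {(centList.map gen).prod} := by
        rw [Subgroup.closure_le]
        rintro _ ⟨a, rfl⟩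
        exact Subgroup.mem_centralizer_singleton_iff.2 (hzc a)
      have hg : g ∈ Subgroup.centralizer {(centList.map gen).prod} :=
        hle (Cfsg.Agent.CosetEnum.FiTwentyThree.gen_top.symm ▸ Subgroup.mem_top g)
      rw [show (wordThree.map gen).prod ^ 9 = (centList.map gen).prod from v3]
      exact Subgroup.mem_centralizer_singleton_iff.1 hg
    exact (word_sq hb hs (fun g => Commute.one_right g) swapsThree_ok hc).trans (one_pow _)
  have ho2 : orderOf (centList.map gen).prod = 2 :=
    orderOf_eq_prime (by rw [pow_two]; exact hz2) hz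
  have ho3 : orderOf omega = 3 := orderOf_eq_prime omega_cube omega_ne.1
  refine exists_cover (x := pairGen) ?_ ?_ p2 ?_ ?_ ?_
  · exact ⟨fun a b h => Prod.ext (hb.comm a b h) (threeGen_braided.comm a b h),
      fun a b h => Prod.ext (hb.braid a b h) (threeGen_braided.braid a b h)⟩
  · exact fun a => Prod.ext (hs a) (threeGen_sq a)
  · rw [p1, p3, Prod.mk_mul_mk, one_mul, mul_one, Prod.orderOf, ho2, ho3]
    decide
  · intro a
    rw [p1]
    exact Prod.ext (by simp [pairGen]) (omega_comm a)
  · intro a
    rw [p3]
    exact Prod.ext (hzc a) (by simp [pairGen])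

end Cfsg.Agent.FiMult
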