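import Cfsg.Agent.FiMult.Upper

/-!
# A sextuple cover from nine elements
-/

set_option autoImplicit false
set_option maxRecDepth 100000
set_option linter.constructorNameAsVariable false

namespace Cfsg.Agent.FiMult

open Cfsg.Spor.Fi22 (Gen)
open scoped commutatorElement

/-- A homomorphism commutes with the values of words. -/
theorem map_word {M N F : Type*} [Monoid M] [Monoid N] [FunLike F M N] [MonoidHomClass F M N]
    (f : F) (x : Gen → M) (w : List Gen) : f (w.map x).prod = (w.map fun a => f (x a)).prod := by
  rw [map_list_prod, List.map_map]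
  rfl

/-- Nine elements of a finite group whose central values have order six give a stem extension. -/
theorem exists_cover {M : Type} [Group M] [Finite M] {x : Gen → M} (hx : Braided x)
    (hs : ∀ a, x a * x a = 1) (h2 : zTwo x = 1) (hw : orderOf (zOne x * zThree x) = 6)
    (h1c : ∀ a, Commute (x a) (zOne x)) (h3c : ∀ a, Commute (x a) (zThree x)) :
    ∃ (Γ : Type) (_ : Group Γ) (_ : Finite Γ) (σ : Γ →* Cfsg.Spor.Fi22),
      Cfsg.IsStemExtension σ ∧ Nonempty (σ.ker ≃* Multiplicative (ZMod 6)) := by
  classical
  set G := Subgroup.closure (Set.range x)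
  set y : Gen → G := fun a => ⟨x a, Subgroup.subset_closure ⟨a, rfl⟩⟩
  have hy : ∀ w : List Gen, ((w.map y).prod : G).1 = (w.map x).prod := fun w =>
    map_word G.subtype y w
  have hyx : Braided y := ⟨fun a b h => Subtype.ext (hx.comm a b h),
    fun a b h => Subtype.ext (hx.braid a b h)⟩
  have hys : ∀ a, y a * y a = 1 := fun a => Subtype.ext (hs a)
  have htop : Subgroup.closure (Set.range y) = ⊤ := by
    refine Subgroup.map_injective G.subtype_injective ?_
    rw [MonoidHom.map_closure, ← MonoidHom.range_eq_map, Subgroup.range_subtype]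
    congr 1
    ext u
    simp [y]
  set u1 : G := zOne y
  set u3 : G := zThree y
  have e1 : (u1 : M) = zOne x := hy spider
  have e3 : (u3 : M) = zThree x := by
    show (((wordThree.map y).prod ^ 9 : G) : M) = _
    rw [SubmonoidClass.coe_pow, hy]; rfl
  have e2 : zTwo y = 1 := by
    apply Subtype.ext
    show (((wordTwo.map y).prod ^ 9 : G) : M) = _
    rw [SubmonoidClass.coe_pow, hy]
    exact h2
  have hcent : ∀ u : G, (∀ a, Commute (x a) (u : M)) → u ∈ Subgroup.center G := by
    intro u hu
    refine Subgroup.mem_center_iff.2 fun g => ?_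
    have hg : g ∈ Subgroup.centralizer {u} := by
      have hle : Subgroup.closure (Set.range y) ≤ Subgroup.centralizer {u} := by
        rw [Subgroup.closure_le]
        rintro _ ⟨a, rfl⟩
        exact Subgroup.mem_centralizer_singleton_iff.2 (Subtype.ext (hu a))
      exact hle (htop ▸ Subgroup.mem_top g)
    exact Subgroup.mem_centralizer_singleton_iff.1 hg
  have c1 : u1 ∈ Subgroup.center G := hcent _ fun a => e1 ▸ h1c a
  have c3 : u3 ∈ Subgroup.center G := hcent _ fun a => e3 ▸ h3c a
  have hc13 : Commute u1 u3 := Subgroup.mem_center_iff.1 c3 u1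
  set w : G := u1 * u3
  have how : orderOf w = 6 := by
    rw [← orderOf_injective G.subtype G.subtype_injective]
    simpa [w, e1, e3] using hw
  have cw : w ∈ Subgroup.center G := (Subgroup.center G).mul_mem c1 c3
  set K : Subgroup G := Subgroup.zpowers w
  have hKle : K ≤ Subgroup.center G := Subgroup.zpowers_le.2 cw
  have hKn : K.Normal := ⟨fun n hn g => by
    rw [Subgroup.mem_center_iff.1 (hKle hn) g, mul_inv_cancel_right]; exact hn⟩
  obtain ⟨o1, -, o3⟩ := value_orders hyx hys
    (fun g => Subgroup.mem_center_iff.1 c1 g)
    (fun g => by rw [e2]; exact Commute.one_right g)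
    (fun g => Subgroup.mem_center_iff.1 c3 g)
  have k1 : u1 ∈ K := by
    refine ⟨4, ?_⟩
    show w ^ ((4 : ℕ) : ℤ) = u1
    rw [zpow_natCast, hc13.mul_pow, pow_succ u1, o1, one_mul,
      show u3 ^ 4 = (u3 ^ 2) ^ 2 from by rw [← pow_mul], o3, one_pow, mul_one]
  have k3 : u3 ∈ K := by
    refine ⟨3, ?_⟩
    show w ^ ((3 : ℕ) : ℤ) = u3
    rw [zpow_natCast, hc13.mul_pow, o1, one_mul, pow_succ, o3, one_mul]
  let q : G →* G ⧸ K := QuotientGroup.mk' K
  have hq : ∀ r ∈ Cfsg.Spor.coxRelators Cfsg.Spor.Fi22.edges ∪ {r | r ∈ Cfsg.Spor.Fi22.extra},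
      FreeGroup.lift (fun a => q (y a)) r = 1 := by
    intro r hr
    have e : FreeGroup.lift (fun a => q (y a)) r = q (FreeGroup.lift y r) :=
      DFunLike.congr_fun (FreeGroup.ext_hom (FreeGroup.lift fun a => q (y a))
        (q.comp (FreeGroup.lift y)) (fun a => by simp)) r
    rw [e]
    refine (QuotientGroup.eq_one_iff _).2 ?_
    rcases hr with hr | hr
    · rw [lift_cox hyx hys hr]; exact K.one_mem
    · rcases lift_extra y hr with h | h | h <;> rw [h]
      · exact k1
      · rw [e2]; exact K.one_mem
      · exact k3
  let π : Cfsg.Spor.Fi22 →* G ⧸ K := PresentedGroup.toGroup hq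
  have hπ : ∀ a, π (gen0 a) = q (y a) := fun a => PresentedGroup.toGroup.of hq
  have hπs : Function.Surjective π := by
    rw [← MonoidHom.range_eq_top]
    refine top_unique ?_
    rw [show (⊤ : Subgroup (G ⧸ K)) = (Subgroup.closure (Set.range y)).map q from by
      rw [htop, Subgroup.map_top_of_surjective q (QuotientGroup.mk'_surjective K)],
      MonoidHom.map_closure, Subgroup.closure_le]
    rintro _ ⟨_, ⟨a, rfl⟩, rfl⟩
    exact ⟨gen0 a, hπ a⟩
  -- the generated group is perfect
  have hperf : commutator G = ⊤ := by
    set f : G →* Abelianization G := Abelianization.of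
    have hsq : ∀ a, f (y a) * f (y a) = 1 := fun a => by rw [← map_mul, hys, map_one]
    have hadj : ∀ a b, adj a b = true → f (y a) = f (y b) := by
      intro a b h
      have h' := congrArg f (hyx.braid a b h)
      rw [map_mul, map_mul, map_mul, map_mul, mul_comm (f (y a)) (f (y b))] at h'
      exact mul_left_cancel (a := f (y b) * f (y a)) h'
    have hd : ∀ a, f (y a) = f (y .d) := by
      have ab := hadj .a .b (by decide +kernel)
      have bc := hadj .b .c (by decide +kernel)
      have cd := hadj .c .d (by decide +kernel)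
      have de := hadj .e .d (by decide +kernel)
      have ef := hadj .f .e (by decide +kernel)
      have fg := hadj .g .f (by decide +kernel)
      have hd := hadj .h .d (by decide +kernel)
      have hi := hadj .i .h (by decide +kernel)
      intro a
      cases a
      · exact ab.trans (bc.trans cd)
      · exact bc.trans cd
      · exact cd
      · rfl
      · exact de
      · exact ef.trans de
      · exact fg.trans (ef.trans de)
      · exact hd
      · exact hi.trans hd
    have ht : f (y .d) = 1 := by
      have h : f (zTwo y) = f (y .d) ^ 63 := by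
        rw [zTwo, map_pow, map_word f y,
          List.map_congr_left (fun a _ => hd a), List.map_const', List.prod_replicate, ← pow_mul]
        rfl
      rw [e2, map_one, show 63 = 2 * 31 + 1 from rfl, pow_succ, pow_mul, pow_two, hsq, one_pow,
        one_mul] at h
      exact h.symm
    refine top_unique ?_
    rw [← htop, Subgroup.closure_le]
    rintro _ ⟨a, rfl⟩
    have := (hd a).trans ht
    rwa [← Abelianization.ker_of, SetLike.mem_coe, MonoidHom.mem_ker]
  have hπi : Function.Injective π := by
    rw [← MonoidHom.ker_eq_bot_iff]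
    rcases CosetEnum.FiTwentyTwo.main.1.eq_bot_or_eq_top_of_normal π.ker inferInstance with h | h
    · exact h
    · exfalso
      have hK : ∀ g : G, g ∈ K := by
        intro g
        obtain ⟨p, hp⟩ := hπs (q g)
        rw [MonoidHom.mem_ker.1 (h ▸ Subgroup.mem_top p)] at hp
        exact (QuotientGroup.eq_one_iff g).1 hp.symm
      have hab : ∀ g g' : G, Commute g g' := fun g g' =>
        Subgroup.mem_center_iff.1 (hKle (hK g')) g
      have hbot : commutator G = ⊥ := by
        rw [commutator_def, eq_bot_iff, Subgroup.commutator_le]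
        intro g _ g' _
        rw [Subgroup.mem_bot, commutatorElement_eq_one_iff_commute]
        exact hab g g'
      have h1 : w = 1 := by
        rw [← Subgroup.mem_bot, ← hbot, hperf]
        exact Subgroup.mem_top w
      rw [h1, orderOf_one] at how
      omega
  let e := MulEquiv.ofBijective π ⟨hπi, hπs⟩
  refine ⟨G, inferInstance, inferInstance, e.symm.toMonoidHom.comp q,
    ⟨e.symm.surjective.comp (QuotientGroup.mk'_surjective K), ?_, ?_⟩, ?_⟩
  · intro g hg
    refine hKle ((QuotientGroup.eq_one_iff g).1 ?_)
    exact e.symm.injective ((MonoidHom.mem_ker.1 hg).trans (map_one e.symm).symm)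
  · intro g _
    rw [hperf]; exact Subgroup.mem_top g
  · have hker : (e.symm.toMonoidHom.comp q).ker = K := by
      ext g
      rw [MonoidHom.mem_ker]
      show e.symm (q g) = 1 ↔ _
      rw [map_eq_one_iff _ e.symm.injective]
      exact QuotientGroup.eq_one_iff g
    have hcyc : IsCyclic K := inferInstance
    have hcard : Nat.card K = 6 := by rw [Nat.card_zpowers, how]
    exact ⟨(MulEquiv.subgroupCongr hker).trans (mulEquivOfCyclicCardEq (by simp [hcard]))⟩

end Cfsg.Agent.FiMult
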