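import Cfsg.Agent.FiMult.Words

/-!
# Normalised lifts of the generators to a central extension
-/

set_option autoImplicit false
set_option maxRecDepth 100000
set_option linter.constructorNameAsVariable false

namespace Cfsg.Agent.FiMult

open Cfsg.Spor.Fi22 (Gen)

variable {Γ : Type*} [Group Γ] (σ : Γ →* Cfsg.Spor.Fi22)

/-- `x` lifts the generators. -/
def IsLift (x : Gen → Γ) : Prop := ∀ a, σ (x a) = gen0 a

theorem IsLift.prod {x : Gen → Γ} (hx : IsLift σ x) :
    ∀ w : List Gen, σ (w.map x).prod = (w.map gen0).prod := by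
  intro w
  rw [map_list_prod, List.map_map]
  exact congrArg List.prod (List.map_congr_left fun a _ => hx a)

variable (hz : σ.ker ≤ Subgroup.center Γ)

include hz

theorem central {k : Γ} (hk : σ k = 1) (g : Γ) : g * k = k * g :=
  Subgroup.mem_center_iff.1 (hz (MonoidHom.mem_ker.2 hk)) g

omit hz in
theorem sigma_of_eq {u v k : Γ} (h : u = k * v) (he : σ u = σ v) : σ k = 1 := by
  have h1 := congrArg σ h
  rw [map_mul, he] at h1
  exact right_eq_mul.1 h1

/-- Commutator values of the lifts of commuting generators. -/
noncomputable def cval (y : Gen → Γ) (a b : Gen) : Γ := y a * y b * (y a)⁻¹ * (y b)⁻¹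

omit hz in
theorem cval_mul (y : Gen → Γ) (a b : Gen) : y a * y b = cval y a b * (y b * y a) := by
  simp [cval, mul_assoc]

omit hz in
theorem cval_ker {y : Gen → Γ} (hy : IsLift σ y) {a b : Gen} (h : adj a b = false) :
    σ (cval y a b) = 1 :=
  sigma_of_eq σ (cval_mul y a b) (by rw [map_mul, map_mul, hy, hy, gen0_braided.comm a b h])

/-- One propagation step along an edge. -/
theorem cval_step {y : Gen → Γ} (hy : IsLift σ y) {a b b' : Gen} (h1 : adj a b = false)
    (h2 : adj a b' = false) (h3 : adj b b' = true) : cval y a b = cval y a b' := by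
  set c1 := cval y a b with hc1
  set c2 := cval y a b' with hc2
  have z1 : ∀ g : Γ, g * c1 = c1 * g := central σ hz (cval_ker σ hy h1)
  have z2 : ∀ g : Γ, g * c2 = c2 * g := central σ hz (cval_ker σ hy h2)
  obtain ⟨k, hk⟩ : ∃ k, y b * y b' * y b = k * (y b' * y b * y b') :=
    ⟨y b * y b' * y b * (y b' * y b * y b')⁻¹, by group⟩
  have hkk : σ k = 1 := sigma_of_eq σ hk (by
    rw [map_mul, map_mul, map_mul, map_mul, hy, hy, gen0_braided.braid b b' h3])
  have zk := central σ hz hkk
  have e1 : y a * (y b * y b' * y b) = c1 * c2 * c1 * ((y b * y b' * y b) * y a) := by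
    calc y a * (y b * y b' * y b) = (y a * y b) * y b' * y b := by group
    _ = c1 * (y b * (y a * y b')) * y b := by rw [cval_mul y a b, ← hc1]; group
    _ = c1 * ((y b * c2) * (y b' * y a)) * y b := by rw [cval_mul y a b', ← hc2]; group
    _ = c1 * c2 * (y b * y b' * (y a * y b)) := by rw [z2]; group
    _ = c1 * c2 * ((y b * y b') * c1 * (y b * y a)) := by rw [cval_mul y a b, ← hc1]; group
    _ = _ := by rw [z1]; group
  have e2 : y a * (y b' * y b * y b') = c2 * c1 * c2 * ((y b' * y b * y b') * y a) := by
    calc y a * (y b' * y b * y b') = (y a * y b') * y b * y b' := by group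
    _ = c2 * (y b' * (y a * y b)) * y b' := by rw [cval_mul y a b', ← hc2]; group
    _ = c2 * ((y b' * c1) * (y b * y a)) * y b' := by rw [cval_mul y a b, ← hc1]; group
    _ = c2 * c1 * (y b' * y b * (y a * y b')) := by rw [z1]; group
    _ = c2 * c1 * ((y b' * y b) * c2 * (y b' * y a)) := by rw [cval_mul y a b', ← hc2]; group
    _ = _ := by rw [z2]; group
  rw [hk, ← mul_assoc, zk, mul_assoc, e2] at e1
  have e3 : k * (c2 * c1 * c2) * ((y b' * y b * y b') * y a) =
      c1 * c2 * c1 * k * ((y b' * y b * y b') * y a) := by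
    calc k * (c2 * c1 * c2) * ((y b' * y b * y b') * y a)
        = k * (c2 * c1 * c2 * ((y b' * y b * y b') * y a)) := by group
    _ = c1 * c2 * c1 * (k * (y b' * y b * y b') * y a) := e1
    _ = _ := by group
  have e4 := mul_right_cancel e3
  rw [← zk] at e4
  have e5 : c2 * c1 * c2 = c1 * c2 * c1 := mul_right_cancel e4
  rw [z1 c2] at e5
  exact (by
    rw [mul_assoc, mul_assoc] at e5
    exact mul_left_cancel (mul_left_cancel (e5.trans (by rw [z1 c2]))) |>.symm)

theorem cval_swap {y : Gen → Γ} (hy : IsLift σ y) {a b : Gen} (h1 : adj a b = false) :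
    cval y b a = cval y a b := by
  set c := cval y a b with hc
  have zc : ∀ g : Γ, g * c = c * g := central σ hz (cval_ker σ hy h1)
  have hk : σ (y b * y b) = 1 := by rw [map_mul, hy, gen0_sq]
  have e1 : y a * (y b * y b) = c * c * ((y b * y b) * y a) := by
    calc y a * (y b * y b) = y a * y b * y b := by group
    _ = c * (y b * (y a * y b)) := by
      conv_lhs => rw [cval_mul y a b, ← hc]
      group
    _ = c * (y b * c * (y b * y a)) := by rw [cval_mul y a b, ← hc]; group
    _ = _ := by rw [zc]; group
  rw [central σ hz hk (y a)] at e1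
  have hcc : c * c = 1 := right_eq_mul.1 e1
  rw [show cval y b a = c⁻¹ from by simp [hc, cval, mul_assoc], inv_eq_of_mul_eq_one_left hcc]

/-- One round of propagation. -/
def grow (L : List (Gen × Gen)) : List (Gen × Gen) :=
  (gens.flatMap fun a => gens.map fun b => (a, b)).filter fun p =>
    !adj p.1 p.2 && (L.contains p || L.contains (p.2, p.1) ||
      gens.any fun b' => adj b' p.2 && !adj p.1 b' && L.contains (p.1, b'))

/-- Several rounds. -/
def growN : ℕ → List (Gen × Gen)
  | 0 => [(Gen.g, Gen.a)]
  | n + 1 => grow (growN n)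

omit hz in
theorem grow_all : ∀ a b, adj a b = false → a ≠ b →
    (growN 10).contains (a, b) = true :=
  forall_pairs (by decide +kernel)

theorem cval_all {y : Gen → Γ} (hy : IsLift σ y) {a b : Gen} (h : adj a b = false) (hab : a ≠ b) :
    cval y a b = cval y .g .a := by
  have hinv : ∀ n : ℕ, ∀ p : Gen × Gen,
      (growN n).contains p = true →
        cval y p.1 p.2 = cval y .g .a ∧ adj p.1 p.2 = false := by
    intro n
    induction n with
    | zero =>
      intro p hp
      simp [growN] at hp
      subst hp
      exact ⟨rfl, by decide +kernel⟩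
    | succ n ih =>
      intro p hp
      rw [List.contains_iff_mem] at hp
      simp only [growN, grow, List.mem_filter, Bool.and_eq_true, Bool.not_eq_true', Bool.or_eq_true,
        List.any_eq_true] at hp
      obtain ⟨-, hp1, hp2⟩ := hp
      refine ⟨?_, hp1⟩
      rcases hp2 with (h2 | h2) | ⟨b', -, ⟨h3, h4⟩, h5⟩
      · exact (ih p h2).1
      · rw [cval_swap σ hz hy (a := p.2) (b := p.1) (by rw [adj_symm]; exact hp1)]
        exact (ih _ h2).1
      · rw [← cval_step σ hz hy h4 hp1 h3]
        exact (ih _ h5).1
  exact (hinv 10 (a, b) (grow_all a b h hab)).1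

/-- Lifts of commuting generators commute. -/
theorem lift_comm {y : Gen → Γ} (hy : IsLift σ y) {a b : Gen} (h : adj a b = false) :
    y a * y b = y b * y a := by
  by_cases hab : a = b
  · rw [hab]
  set c := cval y .g .a with hc
  have hga : adj .g .a = false := by decide +kernel
  have hck : σ c = 1 := cval_ker σ hy hga
  have zc := central σ hz hck
  have hword : ∀ w : List Gen, (∀ l ∈ w, adj .g l = false ∧ Gen.g ≠ l) →
      y .g * (w.map y).prod = c ^ w.length * ((w.map y).prod * y .g) := by
    intro w
    induction w with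
    | nil => simp
    | cons l t ih =>
      intro hw
      have hl := hw l (by simp)
      rw [List.map_cons, List.prod_cons, ← mul_assoc, cval_mul y .g l, cval_all σ hz hy hl.1 hl.2,
        ← hc, mul_assoc c, mul_assoc (y l), ih (fun m hm => hw m (List.mem_cons_of_mem _ hm)),
        List.length_cons, pow_succ', mul_assoc c, ← mul_assoc (y l)]
      congr 1
      rw [(Commute.pow_right (zc (y l)) _).eq]
      simp only [mul_assoc]
  have h1 := hword wordO (by decide +kernel)
  rw [central σ hz (k := (wordO.map y).prod) (by rw [hy.prod, wordO_one])] at h1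
  have h2 : c ^ 63 = 1 := by
    have := right_eq_mul.1 h1
    rwa [show wordO.length = 63 from by decide +kernel] at this
  have hcc : c * c = 1 := by
    have hk : σ (y .a * y .a) = 1 := by rw [map_mul, hy, gen0_sq]
    have e : y .g * (y .a * y .a) = c * c * ((y .a * y .a) * y .g) := by
      have := hword [.a, .a] (by decide +kernel)
      simpa [pow_two] using this
    rw [central σ hz hk] at e
    exact right_eq_mul.1 e
  have hc1 : c = 1 := by
    rw [show (63 : ℕ) = 2 * 31 + 1 from rfl, pow_succ, pow_mul, pow_two, hcc, one_pow, one_mul] at h2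
    exact h2
  rw [cval_mul y a b, cval_all σ hz hy h hab, ← hc, hc1, one_mul]

end Cfsg.Agent.FiMult
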