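import Mathlib

/-!
# Replaying rewriting steps in words of a Coxeter-like system
-/

set_option autoImplicit false

namespace Cfsg.Agent.FiMult

/-- A rewriting step at a position. -/
inductive Move where
  /-- exchange two letters that commute -/
  | swap (p : ℕ)
  /-- a braid relation -/
  | braid (p : ℕ)
  /-- delete a square -/
  | cancel (p : ℕ)

/-- Whether the step avoids deleting squares. -/
def Move.noCancel : Move → Bool
  | .cancel _ => false
  | _ => true

/-- One step. -/
def stepMove {α : Type*} [DecidableEq α] (adj : α → α → Bool) : List α → Move → Option (List α)
  | w, .swap p =>
    match w.drop p with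
    | a :: b :: t => if adj a b then none else some (w.take p ++ b :: a :: t)
    | _ => none
  | w, .braid p =>
    match w.drop p with
    | a :: b :: c :: t =>
      if adj a b && decide (c = a) then some (w.take p ++ b :: a :: b :: t) else none
    | _ => none
  | w, .cancel p =>
    match w.drop p with
    | a :: b :: t => if b = a then some (w.take p ++ t) else none
    | _ => none

/-- Many steps. -/
def runMoves {α : Type*} [DecidableEq α] (adj : α → α → Bool) : List Move → List α → Option (List α)
  | [], w => some w
  | m :: ms, w =>
    match stepMove adj w m with
    | some w' => runMoves adj ms w'
    | none => none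

/-- The steps can be split. -/
theorem runMoves_append {α : Type*} [DecidableEq α] (adj : α → α → Bool) :
    ∀ (ms ns : List Move) (w w' : List α), runMoves adj ms w = some w' →
      runMoves adj (ms ++ ns) w = runMoves adj ns w' := by
  intro ms
  induction ms with
  | nil => intro ns w w' h; simp [runMoves] at h; simp [h]
  | cons m ms ih =>
    intro ns w w' h
    rw [runMoves] at h
    rw [List.cons_append, runMoves]
    cases hs : stepMove adj w m with
    | none => rw [hs] at h; simp at h
    | some v => rw [hs] at h; exact ih ns v w' h

variable {α : Type*} [DecidableEq α] {M : Type*} [Monoid M]

/-- A step preserves the value. -/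
theorem stepMove_eval {adj : α → α → Bool} {f : α → M}
    (hc : ∀ a b, adj a b = false → f a * f b = f b * f a)
    (hb : ∀ a b, adj a b = true → f a * f b * f a = f b * f a * f b)
    (m : Move) (hs : m.noCancel = false → ∀ a, f a * f a = 1)
    {w w' : List α} (h : stepMove adj w m = some w') :
    (w.map f).prod = (w'.map f).prod := by
  cases m with
  | swap p =>
    simp only [stepMove] at h
    split at h
    · next a b t e =>
      split at h
      · simp at h
      · next hab =>
        obtain rfl := Option.some.inj h
        conv_lhs => rw [← List.take_append_drop p w, e]
        simp only [List.map_append, List.prod_append, List.map_cons, List.prod_cons, ← mul_assoc]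
        simp only [mul_assoc]
        rw [← mul_assoc (f a), hc a b (by simpa using hab), mul_assoc]
    · simp at h
  | braid p =>
    simp only [stepMove] at h
    split at h
    · next a b c t e =>
      split at h
      · next hab =>
        simp only [Bool.and_eq_true, decide_eq_true_eq] at hab
        obtain ⟨hab, rfl⟩ := hab
        obtain rfl := Option.some.inj h
        conv_lhs => rw [← List.take_append_drop p w, e]
        simp only [List.map_append, List.prod_append, List.map_cons, List.prod_cons]
        congr 1
        have h3 := congrArg (· * (t.map f).prod) (hb c b hab)
        simp only [mul_assoc] at h3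
        exact h3
      · simp at h
    · simp at h
  | cancel p =>
    simp only [stepMove] at h
    split at h
    · next a b t e =>
      split at h
      · next hab =>
        obtain rfl := Option.some.inj h
        conv_lhs => rw [← List.take_append_drop p w, e]
        simp only [List.map_append, List.prod_append, List.map_cons, List.prod_cons]
        rw [hab, ← mul_assoc (f a), hs rfl a, one_mul]
      · simp at h
    · simp at h

/-- Steps preserve the value. -/
theorem runMoves_eval {adj : α → α → Bool} {f : α → M}
    (hc : ∀ a b, adj a b = false → f a * f b = f b * f a)
    (hb : ∀ a b, adj a b = true → f a * f b * f a = f b * f a * f b) :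
    ∀ (ms : List Move) (w w' : List α),
      (ms.all Move.noCancel = false → ∀ a, f a * f a = 1) → runMoves adj ms w = some w' →
      (w.map f).prod = (w'.map f).prod := by
  intro ms
  induction ms with
  | nil => intro w w' _ h; simp [runMoves] at h; rw [h]
  | cons m ms ih =>
    intro w w' hs h
    rw [runMoves] at h
    cases e : stepMove adj w m with
    | none => rw [e] at h; simp at h
    | some v =>
      rw [e] at h
      refine (stepMove_eval hc hb m (fun hm => hs ?_) e).trans (ih v w' (fun hm => hs ?_) h)
      · simp [hm]
      · simp [hm]

end Cfsg.Agent.FiMult
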