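import Cfsg.Agent.FiMult.Bound

/-!
# Stem extensions of Fi22 have kernels that are quotients of the cyclic group of order six
-/

set_option autoImplicit false
set_option maxRecDepth 100000
set_option linter.constructorNameAsVariable false

namespace Cfsg.Agent.FiMult

open Cfsg.Spor.Fi22 (Gen)
open scoped commutatorElement

/-- The value of the spider relator. -/
def zOne {M : Type*} [Monoid M] (x : Gen → M) : M := (spider.map x).prod

/-- The value of the first E7 relator. -/
def zTwo {M : Type*} [Monoid M] (x : Gen → M) : M := (wordTwo.map x).prod ^ 9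

/-- The value of the second E7 relator. -/
def zThree {M : Type*} [Monoid M] (x : Gen → M) : M := (wordThree.map x).prod ^ 9

theorem lift_extra {M : Type*} [Group M] (x : Gen → M) {r : FreeGroup Gen}
    (hr : r ∈ Cfsg.Spor.Fi22.extra) : FreeGroup.lift x r = zOne x ∨ FreeGroup.lift x r = zTwo x ∨
      FreeGroup.lift x r = zThree x := by
  simp only [Cfsg.Spor.Fi22.extra, List.mem_cons, List.not_mem_nil, or_false] at hr
  rcases hr with rfl | rfl | rfl
  · refine Or.inl ?_
    rw [zOne, spider, List.map_flatten, List.map_replicate, List.prod_flatten, List.map_replicate,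
      List.prod_replicate]
    simp [map_pow, map_mul, mul_assoc]
  · refine Or.inr (Or.inl ?_)
    simp [zTwo, wordTwo, map_pow, map_mul, mul_assoc]
  · refine Or.inr (Or.inr ?_)
    simp [zThree, wordThree, map_pow, map_mul, mul_assoc]

theorem lift_cox {M : Type*} [Group M] {x : Gen → M} (hx : Braided x) (hs : ∀ a, x a * x a = 1)
    {r : FreeGroup Gen} (hr : r ∈ Cfsg.Spor.coxRelators Cfsg.Spor.Fi22.edges) :
    FreeGroup.lift x r = 1 := by
  obtain ⟨a, -, b, -, rfl⟩ := hr
  have hl : ∀ a b, Cfsg.Spor.coxLabel Cfsg.Spor.Fi22.edges a b =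
      if adj a b then 3 else if a = b then 1 else 2 := forall_pairs (by decide +kernel)
  rw [map_pow, map_mul, FreeGroup.lift_apply_of, FreeGroup.lift_apply_of, hl a b]
  have hi : ∀ a, (x a)⁻¹ = x a := fun a => inv_eq_of_mul_eq_one_left (hs a)
  by_cases hab : adj a b = true
  · rw [if_pos hab]
    calc (x a * x b) ^ 3 = (x a * x b * x a) * (x b * x a * x b) := by
          simp only [pow_succ, pow_zero, one_mul, mul_assoc]
    _ = (x b * x a * x b) * (x b * x a * x b) := by rw [hx.braid a b hab]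
    _ = x b * x a * (x b * x b) * x a * x b := by group
    _ = x b * (x a * x a) * x b := by rw [hs]; group
    _ = 1 := by rw [hs, mul_one, hs]
  · rw [if_neg hab]
    by_cases h : a = b
    · rw [if_pos h, pow_one, h, hs]
    · rw [if_neg h, pow_two]
      calc x a * x b * (x a * x b) = x a * x b * (x b * x a) := by
            rw [hx.comm a b (by simpa using hab)]
      _ = x a * (x b * x b) * x a := by group
      _ = 1 := by rw [hs, mul_one, hs]

/-- The order relations of the three central values. -/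
theorem value_orders {M : Type*} [Group M] {x : Gen → M} (hx : Braided x)
    (hs : ∀ a, x a * x a = 1) (h1 : ∀ g, Commute g (zOne x)) (h2 : ∀ g, Commute g (zTwo x))
    (h3 : ∀ g, Commute g (zThree x)) :
    zOne x ^ 3 = 1 ∧ zTwo x ^ 2 = 1 ∧ zThree x ^ 2 = 1 := by
  have hone : ∀ g, Commute g (1 : M) := fun g => Commute.one_right g
  refine ⟨?_, ?_, ?_⟩
  · have h := triple_one hx.comm hx.braid hs
    simp only [triple, List.map_append, List.prod_append] at h
    have hc : ∀ u : List Gen,
        (u.map x).prod * (spider.map x).prod * (u.reverse.map x).prod = zOne x := by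
      intro u
      rw [show (spider.map x).prod = zOne x from rfl, (h1 _).eq, mul_assoc,
        prod_mul_rev (s := 1) hs hone, one_pow, mul_one]
    rw [hc, hc] at h
    rw [pow_succ, pow_two]
    exact h
  · rw [pow_two]
    exact (word_sq hx hs hone swapsTwo_ok h2).trans (one_pow _)
  · rw [pow_two]
    exact (word_sq hx hs hone swapsThree_ok h3).trans (one_pow _)

/-- The multiplier is at most cyclic of order six. -/
theorem upper {Γ : Type} [Group Γ] [Finite Γ] (σ : Γ →* Cfsg.Spor.Fi22)
    (hst : Cfsg.IsStemExtension σ) :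
    ∃ π : Multiplicative (ZMod 6) →* σ.ker, Function.Surjective π := by
  obtain ⟨hσ, hz, hcomm⟩ := hst
  obtain ⟨x, hl, hx, hs⟩ := exists_coxeter hz hσ
  have hc : ∀ k, σ k = 1 → ∀ g, Commute g k := fun k hk => central σ hz hk
  have hext : ∀ r ∈ Cfsg.Spor.Fi22.extra, σ (FreeGroup.lift x r) = 1 := by
    intro r hr
    have e : σ.comp (FreeGroup.lift x) = PresentedGroup.mk _ :=
      FreeGroup.ext_hom _ _ fun a => by simp [hl a, gen0, PresentedGroup.of]
    rw [← MonoidHom.comp_apply, e]
    exact PresentedGroup.one_of_mem (Or.inr hr)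
  have k1 : σ (zOne x) = 1 := by
    rw [show zOne x = FreeGroup.lift x ((Cfsg.Spor.Fi22.d * Cfsg.Spor.Fi22.c * Cfsg.Spor.Fi22.b *
      Cfsg.Spor.Fi22.d * Cfsg.Spor.Fi22.e * Cfsg.Spor.Fi22.f * Cfsg.Spor.Fi22.d * Cfsg.Spor.Fi22.h *
      Cfsg.Spor.Fi22.i) ^ 10) from by
      rw [zOne, spider, List.map_flatten, List.map_replicate, List.prod_flatten, List.map_replicate,
        List.prod_replicate]
      simp [map_pow, map_mul, mul_assoc]]
    exact hext _ (by simp [Cfsg.Spor.Fi22.extra])
  have k2 : σ (zTwo x) = 1 := by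
    rw [show zTwo x = FreeGroup.lift x ((Cfsg.Spor.Fi22.a * Cfsg.Spor.Fi22.b * Cfsg.Spor.Fi22.c *
      Cfsg.Spor.Fi22.d * Cfsg.Spor.Fi22.e * Cfsg.Spor.Fi22.f * Cfsg.Spor.Fi22.h) ^ 9) from by
      simp [zTwo, wordTwo, map_pow, map_mul, mul_assoc]]
    exact hext _ (by simp [Cfsg.Spor.Fi22.extra])
  have k3 : σ (zThree x) = 1 := by
    rw [show zThree x = FreeGroup.lift x ((Cfsg.Spor.Fi22.b * Cfsg.Spor.Fi22.c *
      Cfsg.Spor.Fi22.d * Cfsg.Spor.Fi22.e * Cfsg.Spor.Fi22.f * Cfsg.Spor.Fi22.g *
      Cfsg.Spor.Fi22.h) ^ 9) from by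
      simp [zThree, wordThree, map_pow, map_mul, mul_assoc]]
    exact hext _ (by simp [Cfsg.Spor.Fi22.extra])
  obtain ⟨o1, o2, o3⟩ := value_orders hx hs (hc _ k1) (hc _ k2) (hc _ k3)
  set z1 := zOne x
  set z2 := zTwo x
  set z3 := zThree x
  set w := z1 * (z2 * z3) with hw
  have hwk : σ w = 1 := by rw [map_mul, map_mul, k1, k2, k3]; simp
  have c23 : Commute z2 z3 := hc _ k3 z2
  have c1 : Commute z1 (z2 * z3) := hc (z2 * z3) (by rw [map_mul, k2, k3, mul_one]) z1
  have h23 : (z2 * z3) ^ 2 = 1 := by rw [c23.mul_pow, o2, o3, mul_one]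
  have hw6 : w ^ 6 = 1 := by
    rw [hw, c1.mul_pow, show (6 : ℕ) = 3 * 2 from rfl, pow_mul, o1, one_pow, one_mul,
      show 3 * 2 = 2 * 3 from rfl, pow_mul, h23, one_pow]
  have hw4 : w ^ 4 = z1 := by
    rw [hw, c1.mul_pow, show (z2 * z3) ^ 4 = ((z2 * z3) ^ 2) ^ 2 from by rw [← pow_mul], h23,
      one_pow, mul_one, pow_succ, o1, one_mul]
  have hw3 : w ^ 3 = z2 * z3 := by
    rw [hw, c1.mul_pow, o1, one_mul, pow_succ, h23, one_mul]
  -- the parity-twisted system
  let t : Multiplicative (ZMod 2) := Multiplicative.ofAdd 1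
  let F : FreeGroup Gen →* Γ × Multiplicative (ZMod 2) := FreeGroup.lift fun a => (x a, t)
  have htt : t * t = 1 := by decide +kernel
  have hFf : ∀ r, (F r).1 = FreeGroup.lift x r := fun r =>
    DFunLike.congr_fun (FreeGroup.ext_hom ((MonoidHom.fst _ _).comp F) (FreeGroup.lift x)
      (fun a => by simp [F])) r
  have hFs : ∀ r, (F r).2 = FreeGroup.lift (fun _ => t) r := fun r =>
    DFunLike.congr_fun (FreeGroup.ext_hom ((MonoidHom.snd _ _).comp F) (FreeGroup.lift fun _ => t)
      (fun a => by simp [F])) r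
  have hsnd : ∀ r, σ (F r).1 = PresentedGroup.mk _ r := by
    intro r
    rw [hFf]
    exact DFunLike.congr_fun (FreeGroup.ext_hom (σ.comp (FreeGroup.lift x)) (PresentedGroup.mk _)
      (fun a => by simp [hl a, gen0, PresentedGroup.of])) r
  let H : Subgroup (Γ × Multiplicative (ZMod 2)) :=
    Subgroup.zpowers (w, 1) ⊔ Subgroup.zpowers (z2, t)
  have hHc : H ≤ Subgroup.center _ := by
    refine sup_le (Subgroup.zpowers_le.2 ?_) (Subgroup.zpowers_le.2 ?_) <;>
      refine Subgroup.mem_center_iff.2 fun g => Prod.ext ?_ ?_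
    · exact hc w hwk g.1
    · exact mul_comm _ _
    · exact hc z2 k2 g.1
    · exact mul_comm _ _
  have hHn : H.Normal := ⟨fun n hn g => by
    rw [Subgroup.mem_center_iff.1 (hHc hn) g, mul_inv_cancel_right]; exact hn⟩
  have hrels : Cfsg.Spor.coxRelators Cfsg.Spor.Fi22.edges ∪ {r | r ∈ Cfsg.Spor.Fi22.extra} ⊆
      (H.comap F : Set (FreeGroup Gen)) := by
    rintro r (hr | hr)
    · show F r ∈ H
      have h2 : FreeGroup.lift (fun _ : Gen => t) r = 1 := by
        refine lift_cox ⟨fun _ _ _ => rfl, fun _ _ _ => rfl⟩ (fun _ => htt) hr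
      rw [show F r = 1 from Prod.ext ((hFf r).trans (lift_cox hx hs hr)) ((hFs r).trans h2)]
      exact H.one_mem
    · show F r ∈ H
      have hwH : (w, (1 : Multiplicative (ZMod 2))) ∈ H :=
        Subgroup.mem_sup_left (Subgroup.mem_zpowers _)
      have hzH : (z2, t) ∈ H := Subgroup.mem_sup_right (Subgroup.mem_zpowers _)
      have ht : ∀ (L : List Gen) (n : ℕ), ((L.map fun _ => t).prod) ^ n = t ^ (L.length * n) := by
        intro L n
        rw [List.map_const', List.prod_replicate, ← pow_mul]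
      simp only [Cfsg.Spor.Fi22.extra, Set.mem_setOf_eq, List.mem_cons, List.not_mem_nil, or_false]
        at hr
      rcases hr with rfl | rfl | rfl
      · convert H.pow_mem hwH 4 using 1
        refine Prod.ext ?_ ?_
        · rw [hFf, Prod.pow_fst, hw4]
          show _ = zOne x
          rw [zOne, spider, List.map_flatten, List.map_replicate, List.prod_flatten,
            List.map_replicate, List.prod_replicate]
          simp [map_pow, map_mul, mul_assoc]
        · rw [hFs, Prod.pow_snd, one_pow]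
          simp [map_pow, map_mul]
          decide +kernel
      · convert hzH using 1
        refine Prod.ext ?_ ?_
        · rw [hFf]
          simp [z2, zTwo, wordTwo, map_pow, map_mul, mul_assoc]
        · rw [hFs]
          simp [map_pow, map_mul]
          decide +kernel
      · convert H.mul_mem hzH (H.pow_mem hwH 3) using 1
        refine Prod.ext ?_ ?_
        · rw [hFf, Prod.fst_mul, Prod.pow_fst, hw3, ← mul_assoc, ← pow_two, o2, one_mul]
          simp [z3, zThree, wordThree, map_pow, map_mul, mul_assoc]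
        · rw [hFs, Prod.snd_mul, Prod.pow_snd, one_pow, mul_one]
          simp [map_pow, map_mul]
          decide +kernel
  have hN := Subgroup.normalClosure_le_normal hrels
  -- everything with trivial parity comes from the free group
  have hall : ∀ g : Γ, ∃ r, F r = (g, 1) := by
    have hsimp := CosetEnum.FiTwentyTwo.main.1
    have hperf : commutator Γ = ⊤ := by
      have hG : commutator Cfsg.Spor.Fi22 = ⊤ := by
        rcases hsimp.eq_bot_or_eq_top_of_normal (commutator Cfsg.Spor.Fi22) inferInstance with h | h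
        · exfalso
          have h1 : Commute (gen0 .a) (gen0 .b) := by
            have := Subgroup.commutator_mem_commutator (Subgroup.mem_top (gen0 .a))
              (Subgroup.mem_top (gen0 .b))
            rw [← commutator_def, h, Subgroup.mem_bot, commutatorElement_eq_one_iff_commute] at this
            exact this
          obtain ⟨φ, hinj, hval, -, -⟩ := SporB.FischerU.fi_data
          have h2 : φ (SporB.FischerU.val [2, 1]) = φ (SporB.FischerU.val [1, 2]) := by
            have e1 := val_codes [Gen.a, .b]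
            have e2 := val_codes [Gen.b, .a]
            simp [codeOf] at e1 e2
            rw [e1, e2, h1.eq]
          have h3 : ∀ i : Fin 3510, CosetCert.FiTwentyTwoU.data.run [2, 1] i =
              CosetCert.FiTwentyTwoU.data.run [1, 2] i := fun i => by
            rw [← hval [2, 1] (by decide +kernel) i, ← hval [1, 2] (by decide +kernel) i, h2]
          exact absurd (h3 ⟨1, by decide⟩) (by decide +kernel)
        · exact h
      refine top_unique fun g _ => ?_
      have h1 : σ g ∈ (commutator Γ).map σ := by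
        rw [commutator_def, Subgroup.map_commutator, Subgroup.map_top_of_surjective σ hσ,
          ← commutator_def, hG]
        exact Subgroup.mem_top _
      obtain ⟨c, hc', he⟩ := h1
      have : c⁻¹ * g ∈ σ.ker := by rw [MonoidHom.mem_ker, map_mul, map_inv, he, inv_mul_cancel]
      simpa using (commutator Γ).mul_mem hc' (hcomm this)
    let E : Subgroup Γ := F.range.comap (MonoidHom.inl Γ (Multiplicative (ZMod 2)))
    suffices h : commutator Γ ≤ E by
      intro g
      exact h (hperf ▸ Subgroup.mem_top g)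
    rw [commutator_def, Subgroup.commutator_le]
    intro g _ g' _
    obtain ⟨r, hr⟩ := PresentedGroup.mk_surjective _ (σ g)
    obtain ⟨r', hr'⟩ := PresentedGroup.mk_surjective _ (σ g')
    obtain ⟨q, hq, rfl⟩ : ∃ q, σ q = 1 ∧ (F r).1 * q = g :=
      ⟨(F r).1⁻¹ * g, by rw [map_mul, map_inv, hsnd, hr, inv_mul_cancel], mul_inv_cancel_left _ _⟩
    obtain ⟨q', hq', rfl⟩ : ∃ q, σ q = 1 ∧ (F r').1 * q = g' :=
      ⟨(F r').1⁻¹ * g', by rw [map_mul, map_inv, hsnd, hr', inv_mul_cancel], mul_inv_cancel_left _ _⟩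
    refine ⟨⁅r, r'⁆, ?_⟩
    rw [map_commutatorElement, MonoidHom.inl_apply]
    refine Prod.ext ?_ ?_
    · show ⁅(F r).1, (F r').1⁆ = ⁅(F r).1 * q, (F r').1 * q'⁆
      simp only [commutatorElement_def, mul_inv_rev]
      set u := (F r).1
      set v := (F r').1
      symm
      calc u * q * (v * q') * (q⁻¹ * u⁻¹) * (q'⁻¹ * v⁻¹)
          = u * (q * v) * q' * q⁻¹ * (u⁻¹ * q'⁻¹) * v⁻¹ := by group
      _ = u * (v * q) * q' * q⁻¹ * (q'⁻¹ * u⁻¹) * v⁻¹ := by
          rw [← (hc q hq v).eq, ((hc q' hq' u⁻¹).inv_right).eq]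
      _ = u * v * (q * q') * q⁻¹ * q'⁻¹ * u⁻¹ * v⁻¹ := by group
      _ = u * v * (q' * q) * q⁻¹ * q'⁻¹ * u⁻¹ * v⁻¹ := by rw [(hc q' hq' q).eq]
      _ = _ := by group
    · show ⁅(F r).2, (F r').2⁆ = 1
      rw [commutatorElement_eq_one_iff_commute]
      exact mul_comm _ _
  have hK : ∀ k : σ.ker, (k : Γ) ∈ Subgroup.zpowers w := by
    intro k
    obtain ⟨r, hr⟩ := hall k
    have hr0 : r ∈ Subgroup.normalClosure
        (Cfsg.Spor.coxRelators Cfsg.Spor.Fi22.edges ∪ {r | r ∈ Cfsg.Spor.Fi22.extra}) := by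
      rw [← PresentedGroup.mk_eq_one_iff, ← hsnd, hr]
      exact k.2
    have hH : ((k : Γ), (1 : Multiplicative (ZMod 2))) ∈ H := hr ▸ hN hr0
    have hZn : (Subgroup.zpowers (w, (1 : Multiplicative (ZMod 2)))).Normal := ⟨fun n hn g => by
      have hn' : n ∈ Subgroup.center _ := hHc (Subgroup.mem_sup_left hn)
      rw [Subgroup.mem_center_iff.1 hn' g, mul_inv_cancel_right]; exact hn⟩
    rw [Subgroup.mem_sup_of_normal_left] at hH
    obtain ⟨_, ⟨i, rfl⟩, _, ⟨j, rfl⟩, hij⟩ := hH
    have e1 : w ^ i * z2 ^ j = (k : Γ) := congrArg Prod.fst hij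
    have e2 : t ^ j = 1 := by
      have := congrArg Prod.snd hij
      simpa using this
    have ht2 : orderOf t = 2 := orderOf_eq_prime (by rw [pow_two]; exact htt) (by decide +kernel)
    have hj : ((2 : ℕ) : ℤ) ∣ j := ht2 ▸ orderOf_dvd_iff_zpow_eq_one.2 e2
    obtain ⟨j', rfl⟩ := hj
    rw [zpow_mul, zpow_natCast, o2, one_zpow, mul_one] at e1
    exact e1 ▸ Subgroup.zpow_mem_zpowers w i
  let f : ℤ →+ Additive σ.ker := zmultiplesHom _ (Additive.ofMul ⟨w, hwk⟩)
  have hf : f (6 : ℕ) = 0 := by
    show ((6 : ℕ) : ℤ) • Additive.ofMul (⟨w, hwk⟩ : σ.ker) = 0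
    rw [natCast_zsmul, ← ofMul_pow]
    exact congrArg Additive.ofMul (Subtype.ext hw6)
  refine ⟨AddMonoidHom.toMultiplicativeLeft (ZMod.lift 6 ⟨f, hf⟩), fun k => ?_⟩
  obtain ⟨i, hi⟩ := hK k
  refine ⟨Multiplicative.ofAdd (i : ZMod 6), ?_⟩
  show Additive.toMul (ZMod.lift 6 ⟨f, hf⟩ ((i : ℤ) : ZMod 6)) = k
  rw [ZMod.lift_coe]
  show Additive.toMul (i • Additive.ofMul (⟨w, hwk⟩ : σ.ker)) = k
  rw [← ofMul_zpow, toMul_ofMul]
  exact Subtype.ext ((SubgroupClass.coe_zpow _ _).trans hi)

end Cfsg.Agent.FiMult
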